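import Mathlib
import Cfsg.Agent.Lib.LieModel.O73.P.Cert

/-! generated by tools/cgt -/

set_option autoImplicit false
set_option maxRecDepth 100000
set_option Elab.async false

namespace CfsgLib.LieModel.O73.P

open CfsgLib.Comput

theorem s_fix : band (Nat.ble (Nat.succ L0.a) 351) (closedB (stepN W) L0.hs (Nat.shiftLeft 1 L0.a)) = true := by decide +kernel

end CfsgLib.LieModel.O73.P
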